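import Mathlib.LinearAlgebra.Matrix.GeneralLinearGroup.Defs
import Mathlib.LinearAlgebra.QuadraticForm.Basis
import Mathlib.Analysis.SpecialFunctions.Pow.Real
import Mathlib.Algebra.Field.ZMod
import Mathlib.Algebra.Module.ZMod
import Mathlib.Algebra.CharP.Two

/-! The real twisted group algebra of a bilinear form over the field with two elements, and
inner realisation of isometries. -/

set_option autoImplicit false

namespace Cfsg.Agent.H62.Cliff

open Matrix Finset

/-- the sign character -/
noncomputable def sg (a : ZMod 2) : ℝ := if a = 0 then 1 else -1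

theorem zcases (a : ZMod 2) : a = 0 ∨ a = 1 := by revert a; decide

@[simp] theorem sg_zero : sg 0 = 1 := by simp [sg]
@[simp] theorem sg_one : sg 1 = -1 := by simp [sg]
theorem one_add_one : (1 : ZMod 2) + 1 = 0 := by decide
theorem sg_add (a b : ZMod 2) : sg (a + b) = sg a * sg b := by
  rcases zcases a with rfl | rfl <;> rcases zcases b with rfl | rfl <;> simp [one_add_one]
theorem sg_mul_self (a : ZMod 2) : sg a * sg a = 1 := by
  rcases zcases a with rfl | rfl <;> simp
theorem sg_ne_zero (a : ZMod 2) : sg a ≠ 0 := by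
  rcases zcases a with rfl | rfl <;> simp
theorem sg_inj {a b : ZMod 2} (h : sg a = sg b) : a = b := by
  rcases zcases a with rfl | rfl <;> rcases zcases b with rfl | rfl <;> simp at h ⊢ <;> linarith

variable {V : Type*} [AddCommGroup V] [Module (ZMod 2) V]

theorem add_self (v : V) : v + v = 0 := by
  rw [← two_smul (ZMod 2), show (2 : ZMod 2) = 0 from rfl, zero_smul]

theorem add_add_self (u v : V) : u + v + v = u := by rw [add_assoc, add_self, add_zero]
theorem self_add_add (u v : V) : u + (u + v) = v := by rw [← add_assoc, add_self, zero_add]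

theorem exists_quad [Finite V] (γ : V →ₗ[ZMod 2] V →ₗ[ZMod 2] ZMod 2) (h : ∀ u, γ u u = 0) :
    ∃ s : V → ZMod 2, ∀ u v, s (u + v) = s u + s v + γ u v := by
  let bm := Module.finBasis (ZMod 2) V
  let B : V →ₗ[ZMod 2] V →ₗ[ZMod 2] ZMod 2 := bm.constr (S := ZMod 2) fun i =>
    bm.constr (S := ZMod 2) fun j => if i < j then γ (bm i) (bm j) else 0
  have hs : ∀ u v, γ u v = γ v u := by
    intro u v
    have := h (u + v)
    simp only [map_add, LinearMap.add_apply, h, zero_add, add_zero] at this
    exact (CharTwo.add_eq_zero.1 this).symm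
  have hB : B + B.flip = γ := by
    refine bm.ext fun i => bm.ext fun j => ?_
    simp only [B, LinearMap.add_apply, LinearMap.flip_apply, Module.Basis.constr_basis]
    rcases lt_trichotomy i j with hij | rfl | hij
    · simp [hij, hij.not_gt]
    · simp [h]
    · simp [hij, hij.not_gt, hs (bm i)]
  refine ⟨fun u => B u u, fun u v => ?_⟩
  rw [← hB]
  simp only [map_add, LinearMap.add_apply, LinearMap.flip_apply]
  ring

variable [Fintype V] [DecidableEq V] (β : V →ₗ[ZMod 2] V →ₗ[ZMod 2] ZMod 2)

/-- left multiplication by a basis element -/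
noncomputable def L (u : V) : Matrix V V ℝ := Matrix.of fun a b => if a = u + b then sg (β u b) else 0

theorem L_mul_apply (u : V) (g : Matrix V V ℝ) (a c : V) :
    (L β u * g) a c = sg (β u (u + a)) * g (u + a) c := by
  rw [mul_apply, sum_eq_single (u + a)]
  · simp [L, self_add_add]
  · intro b _ hb
    have : a ≠ u + b := fun h => hb (by rw [h, self_add_add])
    simp [L, this]
  · simp

theorem mul_L_apply (u : V) (g : Matrix V V ℝ) (a c : V) :
    (g * L β u) a c = g a (u + c) * sg (β u c) := by
  simp [L, mul_apply]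

theorem L_mul (u v : V) : L β u * L β v = sg (β u v) • L β (u + v) := by
  ext a c
  rw [mul_L_apply]
  simp only [L, of_apply, Matrix.smul_apply, add_assoc, map_add, LinearMap.add_apply, sg_add,
    smul_eq_mul]
  split_ifs
  · ring
  · ring

omit [Fintype V] in
theorem L_zero : L β 0 = 1 := by
  ext a c; simp [L, one_apply]

omit [Fintype V] in
theorem L_transpose (u : V) : (L β u)ᵀ = sg (β u u) • L β u := by
  ext a c
  simp only [L, transpose_apply, of_apply, Matrix.smul_apply, smul_eq_mul]
  by_cases h : a = u + c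
  · subst h; simp [self_add_add, sg_add]
  · have : c ≠ u + a := fun h' => h (by rw [h', self_add_add])
    simp [h, this]

theorem L_tm (u : V) : (L β u)ᵀ * L β u = 1 := by
  rw [L_transpose, smul_mul_assoc, L_mul, add_self, L_zero, smul_smul, sg_mul_self, one_smul]

theorem L_mt (u : V) : L β u * (L β u)ᵀ = 1 := mul_eq_one_comm.1 (L_tm β u)

theorem L_comm (u v : V) : L β u * L β v = sg (β u v + β v u) • (L β v * L β u) := by
  rw [L_mul, L_mul, smul_smul, sg_add, mul_assoc, sg_mul_self, mul_one, add_comm]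

omit [Fintype V] in
theorem L_inj {a b : ZMod 2} {u v : V} (h : sg a • L β u = sg b • L β v) : a = b ∧ u = v := by
  have h1 := congrFun (congrFun h u) 0
  simp only [L, Matrix.smul_apply, of_apply, add_zero, if_true, map_zero, sg_zero, smul_eq_mul,
    mul_one] at h1
  by_cases huv : u = v
  · exact ⟨sg_inj (by simpa [huv] using h1), huv⟩
  · simp [huv, sg_ne_zero] at h1

/-- the twisted group algebra -/
noncomputable def A : Subalgebra ℝ (Matrix V V ℝ) where
  carrier := {g | ∀ a b, g a b = sg (β (a + b) b) * g (a + b) 0}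
  mul_mem' := by
    intro g h hg hh a c
    rw [mul_apply, mul_apply, mul_sum, ← Equiv.sum_comp (Equiv.addRight c)]
    refine sum_congr rfl fun b _ => ?_
    rw [Equiv.coe_addRight, hg a (b + c), hh (b + c) c, hg (a + c) b, add_add_self,
      show a + (b + c) = a + c + b by abel]
    have : β (a + c + b) (b + c) + β b c = β (a + c) c + β (a + c + b) b := by
      simp only [map_add, LinearMap.add_apply]
      linear_combination (exp := 1) (CharTwo.add_self_eq_zero (β b c))
    have h2 := congrArg sg this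
    rw [sg_add, sg_add] at h2
    linear_combination (g (a + c + b) 0 * h b 0) * h2
  add_mem' := by
    intro g h hg hh a b
    rw [Matrix.add_apply, Matrix.add_apply, hg a b, hh a b]; ring
  algebraMap_mem' := by
    intro r a b
    simp only [algebraMap_matrix_apply]
    by_cases h : a = b
    · subst h; simp [add_self]
    · have : a + b ≠ 0 := fun h' => h (by rw [← add_add_self a b, h', zero_add])
      simp [h, this]

theorem L_mem (u : V) : L β u ∈ A β := by
  intro a b
  simp only [L, of_apply, add_zero, map_zero, sg_zero]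
  by_cases h : a = u + b
  · subst h; simp [add_add_self]
  · have : a + b ≠ u := fun h' => h (by rw [← h', add_add_self])
    simp [h, this]

variable {β}

theorem transpose_mem {g : Matrix V V ℝ} (hg : g ∈ A β) : gᵀ ∈ A β := by
  intro a b
  rw [transpose_apply, transpose_apply, hg b a, hg 0 (a + b), zero_add, add_comm b a, ← mul_assoc,
    ← sg_add]
  congr 2
  rw [(β (a + b)).map_add a b]
  linear_combination (exp := 1) -(CharTwo.add_self_eq_zero (β (a + b) b))

theorem exists_col {g : Matrix V V ℝ} (hg : g ∈ A β) (h0 : g ≠ 0) : ∃ w, g w 0 ≠ 0 := by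
  by_contra h
  push Not at h
  apply h0
  ext a b
  rw [hg a b, h]; simp

theorem sign_eq {g : Matrix V V ℝ} (hg : g ∈ A β) {w u : V} (hw : g w 0 ≠ 0) {ε : ZMod 2}
    (h : g * L β u = sg ε • (L β u * g)) : ε = β w u + β u w := by
  have h1 := congrFun (congrFun h (u + w)) 0
  rw [mul_L_apply, Matrix.smul_apply, L_mul_apply, self_add_add, add_zero, hg (u + w) u,
    add_comm u w, add_add_self, map_zero, sg_zero, mul_one, smul_eq_mul, ← mul_assoc, ← sg_add] at h1
  have := sg_inj (mul_right_cancel₀ hw h1)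
  rw [this, add_assoc, CharTwo.add_self_eq_zero, add_zero]

theorem scalar (hnd : ∀ u, (∀ v, β u v + β v u = 0) → u = 0) {g : Matrix V V ℝ} (hg : g ∈ A β)
    (h : ∀ u, g * L β u = L β u * g) : g = g 0 0 • (1 : Matrix V V ℝ) := by
  have h1 : ∀ w, w ≠ 0 → g w 0 = 0 := by
    intro w hw
    by_contra h0
    exact hw (hnd w fun v => (sign_eq hg h0 (ε := 0) (by simpa using h v)).symm)
  ext a b
  rw [hg a b]
  by_cases hab : a = b
  · subst hab; simp [add_self]
  · have : a + b ≠ 0 := fun h' => hab (by rw [← add_add_self a b, h', zero_add])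
    simp [h1 _ this, one_apply_ne hab]

theorem eq_L (hnd : ∀ u, (∀ v, β u v + β v u = 0) → u = 0) {g : Matrix V V ℝ} (hg : g ∈ A β)
    (ho : gᵀ * g = 1) (h : ∀ u, ∃ ε, g * L β u = sg ε • (L β u * g)) :
    ∃ ε w, g = sg ε • L β w := by
  obtain ⟨w, hw⟩ := exists_col hg (by rintro rfl; simp at ho)
  have h1 := scalar hnd (mul_mem (L_mem β w) hg) (fun u => by
    obtain ⟨ε, hε⟩ := h u
    rw [mul_assoc, hε, sign_eq hg hw hε, mul_smul_comm, ← mul_assoc, L_comm β w u, smul_mul_assoc,
      smul_smul, sg_mul_self, one_smul, mul_assoc])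
  set c := (L β w * g) 0 0
  have h2 : g = (c * sg (β w w)) • L β w := by
    rw [← one_mul g, ← L_tm β w, mul_assoc, h1, mul_smul_comm, mul_one, L_transpose, smul_smul]
  set c' := c * sg (β w w)
  rw [h2, transpose_smul, smul_mul_smul_comm, L_tm] at ho
  have h3 : c' * c' = 1 := by simpa using congrFun (congrFun ho 0) 0
  rcases mul_self_eq_one_iff.1 h3 with h4 | h4
  · exact ⟨0, w, by rw [h2, h4, sg_zero]⟩
  · exact ⟨1, w, by rw [h2, h4, sg_one]⟩

theorem sum_sg (hnd : ∀ u, (∀ v, β u v + β v u = 0) → u = 0) {u : V} (hu : u ≠ 0) :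
    ∑ w, sg (β w u + β u w) = 0 := by
  obtain ⟨v, hv⟩ : ∃ v, β u v + β v u ≠ 0 := by
    by_contra h; push Not at h; exact hu (hnd u h)
  have hv1 := (zcases _).resolve_left hv
  have := Equiv.sum_comp (Equiv.addRight v) (fun w => sg (β w u + β u w))
  simp only [Equiv.coe_addRight] at this
  rw [sum_congr rfl (g := fun w => - sg (β w u + β u w)), sum_neg_distrib] at this
  · linarith
  · intro w _
    have : β (w + v) u + β u (w + v) = (β w u + β u w) + 1 := by
      rw [← hv1]; simp only [map_add, LinearMap.add_apply]; ring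
    rw [this, sg_add, sg_one, mul_neg_one]

theorem exists_inter (hnd : ∀ u, (∀ v, β u v + β v u = 0) → u = 0) (k : V →ₗ[ZMod 2] V)
    (hk : ∀ u, β (k u) (k u) = β u u) :
    ∃ g ∈ A β, gᵀ * g = 1 ∧ ∀ u, ∃ ε, g * L β u = sg ε • (L β (k u) * g) := by
  obtain ⟨s, hs⟩ := exists_quad (β.compl₁₂ k k + β) (fun u => by
    simp [hk, CharTwo.add_self_eq_zero])
  have hs0 : s 0 = 0 := by simpa using hs 0 0
  let M : V → Matrix V V ℝ := fun u => sg (s u) • L β (k u)
  have hM : ∀ u v, M u * M v = sg (β u v) • M (u + v) := by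
    intro u v
    simp only [M, smul_mul_smul_comm, L_mul, smul_smul, hs, map_add, sg_add, LinearMap.add_apply,
      LinearMap.compl₁₂_apply]
    congr 1
    linear_combination (-(sg (s u) * sg (s v) * sg (β (k u) (k v)))) * sg_mul_self (β u v)
  have hMt : ∀ u, (M u)ᵀ * M u = 1 := fun u => by
    simp only [M, transpose_smul, smul_mul_smul_comm, L_tm, sg_mul_self, one_smul]
  let G : V → Matrix V V ℝ := fun w => ∑ u, M u * L β w * (L β u)ᵀ
  have hGA : ∀ w, G w ∈ A β := fun w => sum_mem fun u _ =>
    mul_mem (mul_mem (Subalgebra.smul_mem _ (L_mem β _) _) (L_mem β w)) (transpose_mem (L_mem β u))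
  have hG : ∀ w v, G w * L β v = M v * G w := by
    intro w v
    simp only [G]
    rw [sum_mul, mul_sum, ← Equiv.sum_comp (Equiv.addLeft v)]
    refine sum_congr rfl fun u _ => ?_
    have h1 : (L β u)ᵀ = sg (β v u) • ((L β (v + u))ᵀ * L β v) := by
      rw [← smul_mul_assoc, ← transpose_smul, ← L_mul, transpose_mul, mul_assoc, L_tm, mul_one]
    rw [Equiv.coe_addLeft, ← mul_assoc, ← mul_assoc, hM, h1]
    simp only [smul_mul_assoc, mul_smul_comm, smul_smul, sg_mul_self, one_smul, mul_assoc]
  obtain ⟨w, hw⟩ : ∃ w, G w ≠ 0 := by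
    by_contra h
    push Not at h
    have h1 : ∑ w, G w * (L β w)ᵀ = 0 := by simp [h]
    have h2 : ∀ w u, M u * L β w * (L β u)ᵀ * (L β w)ᵀ = sg (β w u + β u w) • (M u * (L β u)ᵀ) := by
      intro w u
      rw [L_transpose β u]
      simp only [mul_smul_comm, smul_mul_assoc]
      rw [mul_assoc (M u), L_comm β w u]
      simp only [mul_smul_comm, smul_mul_assoc, mul_assoc, L_mt, mul_one]
      rw [smul_comm]
    simp only [G, sum_mul, h2] at h1
    rw [sum_comm, sum_eq_single 0] at h1
    · have := congrFun (congrFun h1 0) 0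
      simp [M, hs0, L_zero] at this
    · intro u _ hu
      rw [← sum_smul, sum_sg hnd hu, zero_smul]
    · simp
  have h1 := scalar hnd (mul_mem (transpose_mem (hGA w)) (hGA w)) (fun u => by
    have h2 := congrArg transpose (hG w u)
    rw [transpose_mul, transpose_mul] at h2
    have h3 : (G w)ᵀ * M u = L β u * (G w)ᵀ := by
      calc (G w)ᵀ * M u = L β u * ((L β u)ᵀ * (G w)ᵀ) * M u := by rw [← mul_assoc, L_mt, one_mul]
        _ = _ := by rw [h2, mul_assoc, mul_assoc, hMt, mul_one]
    rw [mul_assoc, hG, ← mul_assoc, h3, mul_assoc])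
  set c := ((G w)ᵀ * G w) 0 0 with hc
  have hc0 : 0 < c := by
    obtain ⟨a, ha⟩ := exists_col (hGA w) hw
    rw [hc, mul_apply]
    exact sum_pos' (fun i _ => mul_self_nonneg _) ⟨a, mem_univ _, mul_self_pos.2 ha⟩
  refine ⟨(√c)⁻¹ • G w, Subalgebra.smul_mem _ (hGA w) _, ?_, fun u => ⟨s u, ?_⟩⟩
  · rw [transpose_smul, smul_mul_smul_comm, h1, smul_smul, ← mul_inv, Real.mul_self_sqrt hc0.le,
      inv_mul_cancel₀ hc0.ne', one_smul]
  · rw [smul_mul_assoc, hG, mul_smul_comm, smul_comm]
    simp only [M, smul_mul_assoc]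

end Cfsg.Agent.H62.Cliff
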