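import Cfsg.Agent.H62.HallSym2
import Cfsg.Agent.H62.AbSym2
import Cfsg.Prelude.Def_HallClasses

/-! Hall subgroups of symmetric and alternating groups, part 3: the classification (P. Hall, Thompson). -/

namespace Cfsg.Agent.H62.HallSym

open Equiv Equiv.Perm Subgroup MulAction H46

variable {α : Type*} [Fintype α] [DecidableEq α]

/-- the partition into `Γ` and its complement -/
def sG (Γ : Finset α) : Setoid α := ⟨fun x y => (x ∈ Γ ↔ y ∈ Γ), ⟨fun _ => Iff.rfl, Iff.symm, Iff.trans⟩⟩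

theorem cls_sG_mem {Γ : Finset α} {x : α} (h : x ∈ Γ) : cls (sG Γ) x = Γ := by
  ext y; rw [mem_cls]; exact ⟨fun h' => h'.1 h, fun h' => ⟨fun _ => h', fun _ => h⟩⟩

theorem cls_sG_not {Γ : Finset α} {x : α} (h : x ∉ Γ) : cls (sG Γ) x = Γᶜ := by
  ext y; rw [mem_cls, Finset.mem_compl]
  exact ⟨fun h' h2 => h (h'.2 h2), fun h' => ⟨fun h2 => absurd h2 h, fun h2 => absurd h2 h'⟩⟩

/-- the relation of lying in the support of a common three-cycle -/
def s3 (M : Subgroup (Perm α)) : Setoid α :=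
  ⟨fun x y => x = y ∨ ∃ u, T3 M x y u, ⟨fun _ => Or.inl rfl,
    fun h => h.elim (fun h => Or.inl h.symm) fun ⟨u, h⟩ => Or.inr ⟨u, h.sw⟩,
    fun h1 h2 => rel_trans (h1.elim (fun h => Or.inl h.symm) fun ⟨u, h⟩ => Or.inr ⟨u, h.sw⟩) h2⟩⟩

omit [Fintype α] in
theorem le_T_s3 (M : Subgroup (Perm α)) : M ≤ T (s3 M) := by
  have key : ∀ g ∈ M, ∀ x y, s3 M x y → s3 M (g x) (g y) := by
    rintro g hg x y (rfl | ⟨u, h⟩)
    · exact Or.inl rfl
    · exact Or.inr ⟨_, h.conj hg⟩
  intro g hg x y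
  exact ⟨key g hg x y, fun h => by simpa using key _ (M.inv_mem hg) _ _ h⟩

theorem three_le_cls {M : Subgroup (Perm α)} {x y u : α} (h : T3 M x y u) : 3 ≤ (cls (s3 M) x).card := by
  have h1 : ({x, y, u} : Finset α) ⊆ cls (s3 M) x := by
    intro z hz
    simp only [Finset.mem_insert, Finset.mem_singleton] at hz
    rw [mem_cls]
    rcases hz with rfl | rfl | rfl
    · exact Or.inl rfl
    · exact Or.inr ⟨_, h⟩
    · exact Or.inr ⟨_, h.sw'⟩
  have h2 : ({x, y, u} : Finset α).card = 3 := Finset.card_eq_three.2 ⟨x, y, u, h.1, h.2.1, h.2.2.1, rfl⟩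
  exact h2 ▸ Finset.card_le_card h1

theorem altOn_cls (M : Subgroup (Perm α)) (x : α) : AltOn (cls (s3 M) x) ≤ M := by
  refine AltOn_le fun c hc hs => ?_
  obtain ⟨a, ha⟩ : c.support.Nonempty := Finset.card_pos.1 (by rw [hc.card_support]; norm_num)
  have h0 := (T3_of_threeCycle (H := ⊤) hc ha).1 (mem_top _)
  have ha1 : c a ∈ c.support := apply_mem_support.2 ha
  have ha2 : c (c a) ∈ c.support := apply_mem_support.2 ha1
  have r1 := (s3 M).trans' ((s3 M).symm' (mem_cls.1 (hs ha))) (mem_cls.1 (hs ha1))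
  have r2 := (s3 M).trans' ((s3 M).symm' (mem_cls.1 (hs ha))) (mem_cls.1 (hs ha2))
  obtain ⟨u, hu⟩ := r1.resolve_left h0.1
  obtain ⟨v, hv⟩ := r2.resolve_left h0.2.1
  exact (T3_of_threeCycle hc ha).2 (hu.of_two hv h0.2.2.1)

/-- the exceptional parameters -/
def Case (π : Set ℕ) (n k : ℕ) : Prop :=
  (n.Prime ∧ k + 1 = n ∧ ∀ r : ℕ, r.Prime → r ≤ n → (r ∈ π ↔ r < n)) ∨
    ((n = 7 ∨ n = 8) ∧ k = 4 ∧ ∀ r : ℕ, r.Prime → r ≤ n → (r ∈ π ↔ (r = 2 ∨ r = 3)))

theorem Case.unique {π : Set ℕ} {n k k' : ℕ} (h : Case π n k) (h' : Case π n k') : k = k' := by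
  rcases h with ⟨-, h1, h2⟩ | ⟨h0, h1, h2⟩ <;> rcases h' with ⟨-, h3, h4⟩ | ⟨h5, h3, h4⟩
  · omega
  · have := (h4 5 Nat.prime_five (by omega)).1 ((h2 5 Nat.prime_five (by omega)).2 (by omega))
    omega
  · have := (h2 5 Nat.prime_five (by omega)).1 ((h4 5 Nat.prime_five (by omega)).2 (by omega))
    omega
  · omega

theorem WH.classify {π : Set ℕ} {M : Subgroup (Perm α)} (h : WH π M)
    (hrs : ∃ r s : ℕ, r.Prime ∧ s.Prime ∧ r ≠ s ∧ r ∈ π ∧ s ∈ π ∧ r ≤ Fintype.card α ∧ s ≤ Fintype.card α)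
    (hq : ∃ r : ℕ, r.Prime ∧ r ≤ Fintype.card α ∧ r ∉ π) :
    5 ≤ Fintype.card α ∧ ∃ Γ : Finset α, Case π (Fintype.card α) Γ.card ∧ M ≤ T (sG Γ) := by
  classical
  obtain ⟨h2, h3⟩ : 2 ∈ π ∧ 3 ∈ π := by
    obtain ⟨r, s, hr, hs, hne, h1, h2, h3, h4⟩ := hrs
    rcases lt_or_gt_of_ne hne with h5 | h5
    · exact h.two_three hr hs h5 h1 h2 h4
    · exact h.two_three hs hr h5 h2 h1 h3
  obtain ⟨q, hq, hqn, hqπ⟩ := hq
  have hq5 : 5 ≤ q := hq.five_le_of_ne_two_of_ne_three (fun e => hqπ (e ▸ h2)) (fun e => hqπ (e ▸ h3))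
  refine ⟨by omega, ?_⟩
  set s := s3 M with hs
  set F : Finset α := Finset.univ.filter fun x => (cls s x).card < 3 with hF
  have mF : ∀ x, x ∈ F ↔ (cls s x).card < 3 := fun x => by simp [hF]
  have hF3 : F.card < 3 := by
    obtain ⟨F0, hF0, hc⟩ := cov Nat.prime_three (by norm_num) (h.idx 3 Nat.prime_three h3)
    refine lt_of_le_of_lt (Finset.card_le_card fun x hx => ?_) hF0
    by_contra hx0
    obtain ⟨c, hcM, hc, hcx⟩ := hc x hx0
    have := three_le_cls ((T3_of_threeCycle (card_support_eq_three_iff.1 hc.2) (mem_support.2 hcx)).1 hcM)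
    exact absurd ((mF x).1 hx) (not_lt.2 this)
  have hc : ∀ x, ∀ p : ℕ, p.Prime → p ≤ (cls s x).card → p ∈ π := by
    intro x p hp hle
    by_cases hp2 : p = 2
    · exact hp2 ▸ h2
    refine h.pi p hp (Dvd.dvd.trans ?_ (card_dvd_of_le (altOn_cls M x)))
    have h1 := AbAlt.card_altOn (s := cls s x) (hp.two_le.trans hle)
    have h4 : p ∣ 2 * Nat.card (AltOn (cls s x)) := h1 ▸ (hp.dvd_factorial).2 hle
    exact ((Nat.coprime_primes hp Nat.prime_two).2 hp2).dvd_of_dvd_mul_left h4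
  have hN : Co π (N s Finset.univ) := by
    obtain ⟨x, -, hx⟩ := Finset.exists_mem_notMem_of_card_lt_card (s := F) (t := Finset.univ) (by simp; omega)
    rw [mF, not_lt] at hx
    obtain ⟨a, ha, b, hb, hab⟩ := Finset.one_lt_card.1 (show 1 < (cls s x).card by omega)
    rw [N_univ, ← relIndex_alt hab (swap_mem_T (s.trans' (s.symm' (mem_cls.1 ha)) (mem_cls.1 hb)))]
    exact fun p hp hπ hd => h.idx p hp hπ (hd.trans (relIndex_dvd_of_le_left _ (le_T_s3 M)))
  have hFS : Sat s F := fun x hx y hxy => by rw [mF] at hx ⊢; rwa [← cls_eq hxy]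
  have hA := NA (Finset.subset_univ F) hFS (fun g hg x hx => by rw [mF] at hx ⊢; rwa [card_cls_map hg.1])
  have hch : Co π ((Fintype.card α).choose F.card) := hN.of_dvd (hA ▸ (Dvd.intro _ rfl).mul_right _)
  have hcard := Finset.card_sdiff_add_card_eq_card (Finset.subset_univ F)
  rw [Finset.card_univ] at hcard
  have hR := res h2 h3 hc _ (Finset.univ \ F) rfl
    (fun x hx y hxy => by
      rw [Finset.mem_sdiff] at hx ⊢
      exact ⟨Finset.mem_univ _, fun h => hx.2 (hFS y h x (s.symm' hxy))⟩)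
    (fun x hx => by rw [Finset.mem_sdiff, mF] at hx; omega) (hN.of_dvd (hA ▸ Dvd.intro_left _ rfl))
  have hset : ∀ x, (∀ y ∉ cls s x, ∀ z ∉ cls s x, s y z) → M ≤ T (sG (cls s x)) := by
    intro x hx
    have : sG (cls s x) = s := by
      refine Setoid.ext fun y z => ⟨fun h => ?_, fun h => ?_⟩
      · by_cases hy : y ∈ cls s x
        · exact s.trans' (s.symm' (mem_cls.1 hy)) (mem_cls.1 (h.1 hy))
        · exact hx y hy z fun hz => hy (h.2 hz)
      · change _ ↔ _
        rw [mem_cls, mem_cls]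
        exact ⟨fun h' => s.trans' h' h, fun h' => s.trans' h' (s.symm' h)⟩
    rw [this]
    exact le_T_s3 M
  rcases hR with h0 | ⟨x, hx⟩ | ⟨h5, x, y, hxy, hn, h4, hy⟩
  · rw [h0] at hcard; simp at hcard; omega
  · rw [hx] at hcard
    have h1 : ¬ q ≤ (cls s x).card := fun h => hqπ (hc x q hq h)
    have hF1 : F.card = 1 := by
      by_contra hne
      have e2 : F.card = 2 := by omega
      rw [← hcard, e2] at hch
      have := HallNT.nt (a := (cls s x).card) (b := 2) (by omega) le_rfl fun p hp hle => hch p hp (hc x p hp hle)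
      omega
    have hqe : q = Fintype.card α := by omega
    refine ⟨cls s x, Or.inl ⟨hqe ▸ hq, by omega, fun r hr hle => ⟨fun h => ?_, fun h => hc x r hr (by omega)⟩⟩,
      hset x fun y hy z hz => ?_⟩
    · exact lt_of_le_of_ne hle fun e => hqπ (hqe ▸ e ▸ h)
    · rw [← hx, Finset.mem_sdiff, not_and, not_not] at hy hz
      rw [Finset.card_le_one.1 hF1.le y (hy (Finset.mem_univ _)) z (hz (Finset.mem_univ _))]
  · have h7 := card_union_cls hn
    rw [← hxy] at h7
    have hF0 : F.card = 0 := by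
      by_contra hne
      have e2 := hch 2 Nat.prime_two h2
      have e3 := hch 3 Nat.prime_three h3
      have : (F.card = 1 ∨ F.card = 2) ∧ ((Finset.univ \ F).card = 7 ∨ (Finset.univ \ F).card = 8) := by omega
      rw [← hcard] at e2 e3
      rcases this with ⟨a | a, b | b⟩ <;> rw [a, b] at e2 e3 <;> revert e2 e3 <;> decide
    have hFe : F = ∅ := Finset.card_eq_zero.1 hF0
    rw [hFe, Finset.sdiff_empty] at hxy
    have h7π : 7 ∉ π := by
      intro h7π
      obtain ⟨c, hcM, hcc⟩ := (cov Nat.prime_seven (by norm_num) (h.idx 7 Nat.prime_seven h7π)).exists (by omega)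
      obtain ⟨z, hz⟩ := pc_le (s := s) Nat.prime_seven (le_T_s3 M hcM) hcc (F := F) (by omega)
        (fun z hz => by rw [mF] at hz; omega)
      exact h5 (hc z 5 Nat.prime_five (by omega))
    refine ⟨cls s x, Or.inr ⟨by omega, h4, fun r hr hle => ⟨fun h => ?_, ?_⟩⟩, hset x fun a ha b hb => ?_⟩
    · have : r ≤ 8 := by omega
      have := hr.two_le
      interval_cases r <;> first | (left; rfl) | (right; rfl) | exact absurd h h5 | exact absurd h h7π |
        exact absurd hr (by norm_num)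
    · rintro (rfl | rfl) <;> assumption
    · have h8 : ∀ z ∉ cls s x, s y z := fun z hz =>
        mem_cls.1 ((Finset.mem_union.1 (hxy ▸ Finset.mem_univ z)).resolve_left hz)
      exact s.trans' (s.symm' (h8 a ha)) (h8 b hb)

theorem N_one {s : Setoid α} {W : Finset α} {x : α} (h : W ⊆ cls s x) : N s W = 1 := by
  have h1 : T s ⊓ Sy W = Sy W := by
    refine inf_eq_right.2 fun g hg => ?_
    have key : ∀ z, s z (g z) := by
      intro z
      by_cases hz : z ∈ W
      · exact s.trans' (s.symm' (mem_cls.1 (h hz))) (mem_cls.1 (h (mem_of_fix hg hz)))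
      · rw [hg z hz]
    intro a b
    exact ⟨fun hab => s.trans' (s.symm' (key a)) (s.trans' hab (key b)),
      fun hab => s.trans' (key a) (s.trans' hab (s.symm' (key b)))⟩
  refine Nat.eq_of_mul_eq_mul_right (t_pos s W) ?_
  rw [N_mul, t, h1, card_Sy, one_mul]

theorem sat_sG (Γ : Finset α) : Sat (sG Γ) Γ := fun _ hx _ h => h.1 hx

theorem inv_of_ne {Γ : Finset α} (h : Γᶜ.card ≠ Γ.card) {g : Perm α} (hg : g ∈ T (sG Γ)) {x : α} :
    g x ∈ Γ ↔ x ∈ Γ := by
  have h1 := card_cls_map hg x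
  constructor
  · intro hx
    by_contra hx'
    rw [cls_sG_mem hx, cls_sG_not hx'] at h1
    exact h h1.symm
  · intro hx
    by_contra hx'
    rw [cls_sG_mem hx, cls_sG_not hx'] at h1
    exact h h1

theorem index_ne {Γ : Finset α} (h : Γᶜ.card ≠ Γ.card) (h1 : Γ.Nonempty) (h2 : Γᶜ.Nonempty) :
    (T (sG Γ)).index = (Fintype.card α).choose Γ.card := by
  obtain ⟨x, hx⟩ := h1
  obtain ⟨y, hy⟩ := h2
  rw [← N_univ, NA (Finset.subset_univ Γ) (sat_sG Γ) fun g hg z hz => (inv_of_ne h hg.1).2 hz,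
    N_one (cls_sG_mem hx).ge, N_one (x := y) (by rw [cls_sG_not (Finset.mem_compl.1 hy)]; exact subset_rfl)]
  simp

theorem index_eq {Γ : Finset α} (h : Γ.card = Γᶜ.card) (h1 : 2 ≤ Γ.card) :
    (T (sG Γ)).index = (Fintype.card α - 1).choose Γ.card := by
  obtain ⟨x, hx⟩ : Γ.Nonempty := Finset.card_pos.1 (by omega)
  obtain ⟨y, hy⟩ : Γᶜ.Nonempty := Finset.card_pos.1 (by omega)
  obtain ⟨g, -, hg⟩ := AbAlt.exists_move (Finset.subset_univ Γ) (Finset.subset_univ Γᶜ) h h1
  have hgT : g ∈ T (sG Γ) := by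
    intro a b
    change (_ ↔ _) ↔ (_ ↔ _)
    rw [← hg a, ← hg b, Finset.mem_compl, Finset.mem_compl, not_iff_not]
  have hO : ((Finset.univ : Finset α) : Set α) = orbit ↥(T (sG Γ) ⊓ Sy Finset.univ) x := by
    refine Set.Subset.antisymm (fun z _ => ?_) (by simp)
    by_cases hz : z ∈ Γ
    · exact ⟨⟨swap x z, swap_mem_T ⟨fun _ => hz, fun _ => hx⟩, fun w hw => absurd (Finset.mem_univ w) hw⟩,
        swap_apply_left x z⟩
    · have := Finset.mem_compl.1 ((hg x).2 hx)
      exact ⟨⟨swap (g x) z * g, (T _).mul_mem (swap_mem_T ⟨fun h => absurd h this, fun h => absurd h hz⟩) hgT,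
        fun w hw => absurd (Finset.mem_univ w) hw⟩, swap_apply_left (g x) z⟩
  have hsub : Γᶜ ⊆ Finset.univ.erase x := fun z hz =>
    Finset.mem_erase.2 ⟨fun e => Finset.mem_compl.1 hz (e ▸ hx), Finset.mem_univ z⟩
  rw [← N_univ, ← NB (Finset.mem_univ x) hO, NA hsub (fun a ha b hab => by
      rw [Finset.mem_compl] at ha ⊢; exact fun h => ha (hab.2 h)) (fun k hk z hz => by
      rw [Finset.mem_compl] at hz ⊢
      intro h3
      have h4 : k x = x := hk.2 x (Finset.notMem_erase x _)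
      exact hz (((hk.1 x z).2 (by rw [h4]; exact ⟨fun _ => h3, fun _ => hx⟩)).1 hx)),
    N_one (cls_sG_not (Finset.mem_compl.1 hy)).ge, N_one (x := x) (fun z hz => by
      rw [cls_sG_mem hx]; simpa using (Finset.mem_sdiff.1 hz).2), Finset.card_erase_of_mem (Finset.mem_univ x), h]
  simp

theorem le_of_dvd_card {K : Subgroup (Perm α)} {p : ℕ} (hp : p.Prime) (h : p ∣ Nat.card K) : p ≤ Fintype.card α := by
  have := h.trans K.card_subgroup_dvd_card
  rwa [Nat.card_eq_fintype_card, Fintype.card_perm, hp.dvd_factorial] at this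

theorem card_cls_sG (Γ : Finset α) (x : α) :
    (x ∈ Γ ∧ (cls (sG Γ) x).card = Γ.card) ∨ (x ∉ Γ ∧ (cls (sG Γ) x).card = Fintype.card α - Γ.card) := by
  by_cases hx : x ∈ Γ
  · exact Or.inl ⟨hx, by rw [cls_sG_mem hx]⟩
  · exact Or.inr ⟨hx, by rw [cls_sG_not hx, Finset.card_compl]⟩

theorem hall_T {π : Set ℕ} {Γ : Finset α} (h5 : 5 ≤ Fintype.card α) (h : Case π (Fintype.card α) Γ.card) :
    IsPiHall π (T (sG Γ)) := by
  have hc := Finset.card_compl Γ
  rcases h with ⟨hn, hk, h⟩ | ⟨hn, hk, h⟩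
  · constructor
    · intro p hp hd
      have hle := le_of_dvd_card hp hd
      refine (h p hp hle).2 (lt_of_le_of_ne hle fun e => ?_)
      refine not_dvd_T hp (by omega) (F := Γᶜ) (by omega) (fun x hx => ?_) (fun x => ?_) hd
      · rw [cls_sG_mem (by simpa using hx)]; omega
      · rcases card_cls_sG Γ x with h | h <;> omega
    · intro p hp hπ hd
      rw [index_ne (by omega) (Finset.card_pos.1 (by omega)) (Finset.card_pos.1 (by omega)), ← hk,
        Nat.choose_succ_self_right, hk, Nat.prime_dvd_prime_iff_eq hp hn] at hd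
      exact absurd ((h p hp hd.le).1 hπ) (by omega)
  · constructor
    · intro p hp hd
      have hle := le_of_dvd_card hp hd
      refine (h p hp hle).2 ?_
      by_contra hne
      rw [not_or] at hne
      have := hp.five_le_of_ne_two_of_ne_three hne.1 hne.2
      refine not_dvd_T hp (by omega) (F := ∅) (by simp; omega) (fun x _ => ?_) (fun x => ?_) hd
      · rcases card_cls_sG Γ x with h | h <;> omega
      · rcases card_cls_sG Γ x with h | h <;> omega
    · intro p hp hπ hd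
      have h35 : (T (sG Γ)).index = 5 * 7 := by
        rcases hn with hn | hn
        · rw [index_ne (by omega) (Finset.card_pos.1 (by omega)) (Finset.card_pos.1 (by omega)), hn, hk]; rfl
        · rw [index_eq (by omega) (by omega), hn, hk]; rfl
      rw [h35, hp.dvd_mul, Nat.prime_dvd_prime_iff_eq hp Nat.prime_five,
        Nat.prime_dvd_prime_iff_eq hp Nat.prime_seven] at hd
      have := (h p hp (by omega)).1 hπ
      omega

omit [Fintype α] [DecidableEq α] in
theorem T_conj {Γ Γ' : Finset α} {g : Perm α} (h : ∀ x, g x ∈ Γ' ↔ x ∈ Γ) (k : Perm α) :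
    k ∈ T (sG Γ') ↔ g⁻¹ * k * g ∈ T (sG Γ) := by
  constructor
  · intro hk x y
    change (_ ↔ _) ↔ (_ ↔ _)
    rw [← h, ← h, ← h, ← h]
    have := hk (g x) (g y)
    change (_ ↔ _) ↔ (_ ↔ _) at this
    simpa using this
  · intro hk x y
    have := hk (g⁻¹ x) (g⁻¹ y)
    change (_ ↔ _) ↔ (_ ↔ _) at this
    rw [← h, ← h, ← h, ← h] at this
    change (_ ↔ _) ↔ (_ ↔ _)
    simpa using this

end Cfsg.Agent.H62.HallSym
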