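import Cfsg.Agent.H62.HallSym3

/-! Hall subgroups of symmetric and alternating groups, part 4: `E`, `C`, `D` properties. -/

namespace Cfsg.Agent.H62.HallSym

open Equiv Equiv.Perm Subgroup MulAction H46

section General

variable {G : Type*} [Group G] [Finite G] {π : Set ℕ}

theorem hall_eq_of_le {H K : Subgroup G} (hH : IsPiHall π H) (hK : IsPiSubgroup π K) (h : H ≤ K) : H = K := by
  refine le_antisymm h (relIndex_eq_one.1 ?_)
  by_contra hne
  obtain ⟨p, hp, hd⟩ := Nat.exists_prime_and_dvd hne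
  exact hH.2 p hp (hK p hp (hd.trans (index_dvd_card _))) (hd.trans (relIndex_dvd_index_of_le h))

theorem hall_normal {H : Subgroup G} (h : IsPiHall π H) (A : Subgroup G) [A.Normal] :
    IsPiHall π (H.subgroupOf A) := by
  refine ⟨fun p hp hd => h.1 p hp (hd.trans ?_), fun p hp hπ hd => h.2 p hp hπ (hd.trans ?_)⟩
  · exact card_comap_dvd_of_injective H A.subtype A.subtype_injective
  · have h1 : (H ⊓ A).relIndex A * A.index = (H ⊓ A).index := relIndex_mul_index inf_le_right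
    have h2 : (H ⊓ A).relIndex H * H.index = (H ⊓ A).index := relIndex_mul_index inf_le_left
    rw [inf_relIndex_right] at h1
    rw [inf_relIndex_left] at h2
    obtain ⟨c, hc⟩ := relIndex_dvd_index_of_normal A H
    have h3 : A.relIndex H ≠ 0 := index_ne_zero_of_finite
    refine ⟨c, Nat.eq_of_mul_eq_mul_left (Nat.pos_of_ne_zero h3) ?_⟩
    rw [h2, ← h1, hc]
    change H.relIndex A * _ = A.relIndex H * (H.relIndex A * c)
    ring

/-- only the prime `p` of `π` matters -/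
def Single (π : Set ℕ) (p m : ℕ) : Prop := ∀ q : ℕ, q.Prime → q ∣ m → (q ∈ π ↔ q = p)

theorem Single.of_dvd {p m m' : ℕ} (h : Single π p m) (hd : m' ∣ m) : Single π p m' :=
  fun q hq h1 => h q hq (h1.trans hd)

theorem exists_single {m : ℕ} (hm : m ≠ 0)
    (h : ∀ r s : ℕ, r.Prime → s.Prime → r ∈ π → s ∈ π → r ∣ m → s ∣ m → r = s) : ∃ p, p.Prime ∧ Single π p m := by
  by_cases h1 : ∃ p : ℕ, p.Prime ∧ p ∈ π ∧ p ∣ m
  · obtain ⟨p, hp, h2, h3⟩ := h1
    exact ⟨p, hp, fun q hq hd => ⟨fun h4 => h q p hq hp h4 h2 hd h3, fun h4 => h4 ▸ h2⟩⟩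
  · obtain ⟨p, h2, hp⟩ := Nat.exists_infinite_primes (m + 1)
    refine ⟨p, hp, fun q hq hd => ⟨fun h4 => absurd ⟨q, hq, h4, hd⟩ h1, fun h4 => ?_⟩⟩
    have := Nat.le_of_dvd (Nat.pos_of_ne_zero hm) hd
    omega

theorem Single.pi_iff {p : ℕ} [hp : Fact p.Prime] (h : Single π p (Nat.card G)) (K : Subgroup G) :
    IsPiSubgroup π K ↔ IsPGroup p K := by
  constructor
  · intro hK
    refine IsPGroup.of_card (n := (Nat.card K).primeFactorsList.length)
      (Nat.eq_prime_pow_of_unique_prime_dvd Nat.card_pos.ne' fun {q} hq hd => ?_)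
    exact (h q hq (hd.trans K.card_subgroup_dvd_card)).1 (hK q hq hd)
  · intro hK q hq hd
    obtain ⟨k, hk⟩ := IsPGroup.iff_card.1 hK
    refine (h q hq (hd.trans K.card_subgroup_dvd_card)).2 ?_
    rw [hk] at hd
    exact (Nat.prime_dvd_prime_iff_eq hq hp.out).1 (hq.dvd_of_dvd_pow hd)

theorem Single.hall_sylow {p : ℕ} [hp : Fact p.Prime] (h : Single π p (Nat.card G)) (P : Sylow p G) :
    IsPiHall π (P : Subgroup G) := by
  refine ⟨(h.pi_iff _).2 P.isPGroup', fun q hq hπ hd => ?_⟩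
  obtain rfl := (h q hq (hd.trans (index_dvd_card _))).1 hπ
  exact P.not_dvd_index hd

theorem Single.max {p : ℕ} [hp : Fact p.Prime] (h : Single π p (Nat.card G)) {K : Subgroup G}
    (hK : Maximal (IsPiSubgroup π) K) : ∃ P : Sylow p G, K = P := by
  obtain ⟨P, hP⟩ := ((h.pi_iff K).1 hK.1).exists_le_sylow
  exact ⟨P, le_antisymm hP (hK.2 ((h.pi_iff _).2 P.isPGroup') hP)⟩

theorem hall_max {K : Subgroup G} (hK : IsPiHall π K) : Maximal (IsPiSubgroup π) K :=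
  ⟨hK.1, fun _ hL h => (hall_eq_of_le hK hL h).ge⟩

theorem Single.D {p : ℕ} (hp : p.Prime) (h : Single π p (Nat.card G)) : IsDPiGroup π G := by
  haveI := Fact.mk hp
  intro H K hH hK
  obtain ⟨P, rfl⟩ := h.max hH
  obtain ⟨Q, rfl⟩ := h.max hK
  obtain ⟨g, rfl⟩ := exists_smul_eq G P Q
  exact ⟨g, rfl⟩

theorem all_D (h : ∀ q : ℕ, q.Prime → q ∣ Nat.card G → q ∈ π) : IsDPiGroup π G := by
  have ht : IsPiSubgroup π (⊤ : Subgroup G) := fun q hq hd => h q hq (by rwa [card_top] at hd)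
  intro H K hH hK
  rw [eq_top_iff.2 (hH.2 ht le_top), eq_top_iff.2 (hK.2 ht le_top)]
  exact ⟨1, (map_top_of_surjective _ (MulAut.conj (1 : G)).surjective).symm⟩

theorem exists_hall_ge (h : IsDPiGroup π G) {K : Subgroup G} (hK : IsPiSubgroup π K) :
    ∃ H, IsPiHall π H ∧ K ≤ H := by
  obtain ⟨H, hKH, hH⟩ := exists_maximal_ge_of_wellFoundedGT (IsPiSubgroup π) K hK
  refine ⟨H, ⟨hH.1, fun p hp hπ hd => ?_⟩, hKH⟩
  haveI := Fact.mk hp
  obtain ⟨P⟩ : Nonempty (Sylow p G) := inferInstance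
  have hP : IsPiSubgroup π (P : Subgroup G) := by
    intro q hq hd
    obtain ⟨k, hk⟩ := IsPGroup.iff_card.1 P.isPGroup'
    rw [hk] at hd
    exact (Nat.prime_dvd_prime_iff_eq hq hp).1 (hq.dvd_of_dvd_pow hd) ▸ hπ
  obtain ⟨H', hPH, hH'⟩ := exists_maximal_ge_of_wellFoundedGT (IsPiSubgroup π) _ hP
  obtain ⟨g, rfl⟩ := h H' H hH' hH
  rw [index_map_of_bijective (MulAut.conj g).bijective] at hd
  exact P.not_dvd_index (hd.trans (index_dvd_of_le hPH))

theorem C_of_D (h : IsDPiGroup π G) : IsCPiGroup π G := by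
  refine ⟨?_, fun H K hH hK => h H K (hall_max hH) (hall_max hK)⟩
  obtain ⟨H, hH, -⟩ := exists_hall_ge h (K := ⊥) (fun p hp hd => by
    rw [card_bot] at hd; exact absurd (Nat.dvd_one.1 hd) hp.one_lt.ne')
  exact ⟨H, hH⟩

end General

variable {α : Type*} [Fintype α] [DecidableEq α] {π : Set ℕ}

theorem dvd_card_perm {p : ℕ} (hp : p.Prime) : p ∣ Nat.card (Perm α) ↔ p ≤ Fintype.card α := by
  rw [Nat.card_eq_fintype_card, Fintype.card_perm, hp.dvd_factorial]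

/-- the nontrivial situation -/
def Mid (π : Set ℕ) (n : ℕ) : Prop :=
  (∃ r s : ℕ, r.Prime ∧ s.Prime ∧ r ≠ s ∧ r ∈ π ∧ s ∈ π ∧ r ≤ n ∧ s ≤ n) ∧ ∃ r : ℕ, r.Prime ∧ r ≤ n ∧ r ∉ π

theorem tri (π : Set ℕ) (α : Type*) [Fintype α] [DecidableEq α] :
    (∃ p, p.Prime ∧ Single π p (Nat.card (Perm α))) ∨ (∀ q : ℕ, q.Prime → q ∣ Nat.card (Perm α) → q ∈ π) ∨
      Mid π (Fintype.card α) := by
  by_cases h1 : ∃ r s : ℕ, r.Prime ∧ s.Prime ∧ r ≠ s ∧ r ∈ π ∧ s ∈ π ∧ r ≤ Fintype.card α ∧ s ≤ Fintype.card α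
  · by_cases h2 : ∃ r : ℕ, r.Prime ∧ r ≤ Fintype.card α ∧ r ∉ π
    · exact Or.inr (Or.inr ⟨h1, h2⟩)
    · refine Or.inr (Or.inl fun q hq hd => ?_)
      by_contra h
      exact h2 ⟨q, hq, (dvd_card_perm hq).1 hd, h⟩
  · refine Or.inl (exists_single Nat.card_pos.ne' fun r s hr hs h3 h4 h5 h6 => ?_)
    by_contra h
    exact h1 ⟨r, s, hr, hs, h, h3, h4, (dvd_card_perm hr).1 h5, (dvd_card_perm hs).1 h6⟩

theorem Mid.sym (h : Mid π (Fintype.card α)) {M : Subgroup (Perm α)} (hM : IsPiHall π M) :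
    5 ≤ Fintype.card α ∧ ∃ Γ : Finset α, Case π (Fintype.card α) Γ.card ∧ M = T (sG Γ) := by
  obtain ⟨h5, Γ, h1, h2⟩ := (WH.mk hM.1 (hall_normal hM (alternatingGroup α)).2).classify h.1 h.2
  exact ⟨h5, Γ, h1, hall_eq_of_le hM (hall_T h5 h1).1 h2⟩

theorem Mid.alt (h : Mid π (Fintype.card α)) {M : Subgroup (alternatingGroup α)} (hM : IsPiHall π M) :
    5 ≤ Fintype.card α ∧ ∃ Γ : Finset α, Case π (Fintype.card α) Γ.card ∧
      M = (T (sG Γ)).subgroupOf (alternatingGroup α) := by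
  have hW : WH π (M.map (alternatingGroup α).subtype) := by
    refine ⟨fun p hp hd => hM.1 p hp (hd.trans (card_map_dvd _ _)), fun p hp hπ => ?_⟩
    rw [relIndex, subgroupOf, comap_map_eq_self_of_injective (alternatingGroup α).subtype_injective]
    exact hM.2 p hp hπ
  obtain ⟨h5, Γ, h1, h2⟩ := hW.classify h.1 h.2
  exact ⟨h5, Γ, h1, hall_eq_of_le hM (hall_normal (hall_T h5 h1) _).1 (map_le_iff_le_comap.1 h2)⟩

theorem Case.two_le {n k : ℕ} (h5 : 5 ≤ n) (h : Case π n k) : 2 ≤ k := by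
  rcases h with ⟨-, h, -⟩ | ⟨-, h, -⟩ <;> omega

theorem move {Γ Γ' : Finset α} (h5 : 5 ≤ Fintype.card α) (h : Case π (Fintype.card α) Γ.card)
    (h' : Case π (Fintype.card α) Γ'.card) :
    ∃ g ∈ alternatingGroup α, ∀ k, k ∈ T (sG Γ') ↔ g⁻¹ * k * g ∈ T (sG Γ) := by
  obtain ⟨g, h1, h2⟩ := AbAlt.exists_move (Finset.subset_univ Γ) (Finset.subset_univ Γ') (h.unique h') (h.two_le h5)
  exact ⟨g, mem_alternatingGroup.2 (mem_AltOn'.1 h1).2, T_conj h2⟩

theorem eq_map_conj {G : Type*} [Group G] {H K : Subgroup G} {g : G} (h : ∀ k, k ∈ K ↔ g⁻¹ * k * g ∈ H) :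
    K = H.map (MulAut.conj g).toMonoidHom := by
  ext k
  rw [h, mem_map_equiv]
  simp

theorem sym_C (h : IsEPiGroup π (Perm α)) : IsCPiGroup π (Perm α) := by
  rcases tri π α with ⟨p, hp, h1⟩ | h1 | h1
  · exact C_of_D (h1.D hp)
  · exact C_of_D (all_D h1)
  · refine ⟨h, fun H K hH hK => ?_⟩
    obtain ⟨h5, Γ, c1, rfl⟩ := h1.sym hH
    obtain ⟨-, Γ', c2, rfl⟩ := h1.sym hK
    obtain ⟨g, -, hg⟩ := move h5 c1 c2
    exact ⟨g, eq_map_conj hg⟩

theorem alt_C (h : IsEPiGroup π (alternatingGroup α)) : IsCPiGroup π (alternatingGroup α) := by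
  rcases tri π α with ⟨p, hp, h1⟩ | h1 | h1
  · exact C_of_D ((h1.of_dvd (card_subgroup_dvd_card _)).D hp)
  · exact C_of_D (all_D fun q hq hd => h1 q hq (hd.trans (card_subgroup_dvd_card _)))
  · refine ⟨h, fun H K hH hK => ?_⟩
    obtain ⟨h5, Γ, c1, rfl⟩ := h1.alt hH
    obtain ⟨-, Γ', c2, rfl⟩ := h1.alt hK
    obtain ⟨g, hgA, hg⟩ := move h5 c1 c2
    exact ⟨⟨g, hgA⟩, eq_map_conj fun k => hg k⟩

theorem alt_hall {M : Subgroup (alternatingGroup α)} (hM : IsPiHall π M) :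
    ∃ M₀ : Subgroup (Perm α), IsPiHall π M₀ ∧ M = M₀.subgroupOf (alternatingGroup α) := by
  have key : ∀ M₀ : Subgroup (Perm α), IsPiHall π M₀ → M.map (alternatingGroup α).subtype ≤ M₀ →
      ∃ M₀ : Subgroup (Perm α), IsPiHall π M₀ ∧ M = M₀.subgroupOf (alternatingGroup α) := fun M₀ h1 h2 =>
    ⟨M₀, h1, hall_eq_of_le hM (hall_normal h1 _).1 (map_le_iff_le_comap.1 h2)⟩
  have hM' : IsPiSubgroup π (M.map (alternatingGroup α).subtype) :=
    fun p hp hd => hM.1 p hp (hd.trans (card_map_dvd _ _))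
  rcases tri π α with ⟨p, hp, h1⟩ | h1 | h1
  · obtain ⟨H, h2, h3⟩ := exists_hall_ge (h1.D hp) hM'
    exact key H h2 h3
  · obtain ⟨H, h2, h3⟩ := exists_hall_ge (all_D h1) hM'
    exact key H h2 h3
  · obtain ⟨h5, Γ, c1, h2⟩ := h1.alt hM
    exact ⟨_, hall_T h5 c1, h2⟩

theorem pi_sub {K : Subgroup (Perm α)} (h : IsPiSubgroup π K) : IsPiSubgroup π (K.subgroupOf (alternatingGroup α)) :=
  fun p hp hd => h p hp (hd.trans (card_comap_dvd_of_injective K _ (alternatingGroup α).subtype_injective))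

theorem not_D_one (h5 : 5 ≤ Fintype.card α) (hm : Mid π (Fintype.card α))
    (hn : ∀ r : ℕ, r.Prime → r ≤ Fintype.card α → (r ∈ π ↔ r < Fintype.card α)) {k : ℕ}
    (hk : Case π (Fintype.card α) k) (hk' : k + 1 = Fintype.card α) : ¬ IsDPiGroup π (alternatingGroup α) := by
  intro hD
  obtain ⟨B, -, hB⟩ := Finset.exists_subset_card_eq (s := (Finset.univ : Finset α)) (n := 2) (by simp; omega)
  have hK : IsPiSubgroup π (T (sG B)) := by
    intro p hp hd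
    have hle := le_of_dvd_card hp hd
    refine (hn p hp hle).2 (lt_of_le_of_ne hle fun e => ?_)
    refine not_dvd_T hp (by omega) (F := ∅) (by simp; omega) (fun x _ => ?_) (fun x => ?_) hd
    · rcases card_cls_sG B x with h | h <;> omega
    · rcases card_cls_sG B x with h | h <;> omega
  obtain ⟨H, hH, hle⟩ := exists_hall_ge hD (pi_sub hK)
  obtain ⟨-, Γ, c1, rfl⟩ := hm.alt hH
  have hΓ := hk.unique c1
  have hc := Finset.card_compl Γ
  obtain ⟨y, hy⟩ := Finset.card_eq_one.1 (show Γᶜ.card = 1 by omega)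
  have hyΓ : ∀ z, z ∉ Γ ↔ z = y := fun z => by rw [← Finset.mem_compl, hy, Finset.mem_singleton]
  obtain ⟨a, b, hab, rfl⟩ := Finset.card_eq_two.1 hB
  have hcB := Finset.card_compl ({a, b} : Finset α)
  obtain ⟨c, d, hc, hd, hcd, hcy⟩ : ∃ c d, c ∉ ({a, b} : Finset α) ∧ d ∉ ({a, b} : Finset α) ∧ c ≠ d ∧
      (y ∉ ({a, b} : Finset α) → c = y) := by
    obtain ⟨c, hc, d, hd, hcd⟩ := Finset.one_lt_card.1 (show 1 < ({a, b} : Finset α)ᶜ.card by omega)
    rw [Finset.mem_compl] at hc hd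
    by_cases h : y ∈ ({a, b} : Finset α)
    · exact ⟨c, d, hc, hd, hcd, fun h' => absurd h h'⟩
    · by_cases h1 : c = y
      · exact ⟨c, d, hc, hd, hcd, fun _ => h1⟩
      · exact ⟨y, c, h, hc, Ne.symm h1, fun _ => rfl⟩
  have hg : swap a b * swap c d ∈ T (sG ({a, b} : Finset α)) :=
    (T _).mul_mem (swap_mem_T ⟨fun _ => by simp, fun _ => by simp⟩)
      (swap_mem_T ⟨fun h => absurd h hc, fun h => absurd h hd⟩)
  have hgA : swap a b * swap c d ∈ alternatingGroup α := by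
    rw [mem_alternatingGroup, map_mul, sign_swap hab, sign_swap hcd]; simp
  have h1 : swap a b * swap c d ∈ T (sG Γ) := hle (show (⟨_, hgA⟩ : alternatingGroup α) ∈ _ from hg)
  have h2 : (swap a b * swap c d) y = y :=
    (hyΓ _).1 fun h => (hyΓ y).2 rfl ((inv_of_ne (by omega) h1).1 h)
  simp only [Finset.mem_insert, Finset.mem_singleton, not_or] at hc hd hcy
  rw [Perm.mul_apply] at h2
  by_cases h3 : y = a
  · subst h3
    rw [swap_apply_of_ne_of_ne (Ne.symm hc.1) (Ne.symm hd.1), swap_apply_left] at h2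
    exact hab h2.symm
  by_cases h4 : y = b
  · subst h4
    rw [swap_apply_of_ne_of_ne (Ne.symm hc.2) (Ne.symm hd.2), swap_apply_right] at h2
    exact hab h2
  obtain rfl := hcy ⟨h3, h4⟩
  rw [swap_apply_left, swap_apply_of_ne_of_ne hd.1 hd.2] at h2
  exact hcd h2.symm

theorem not_D_two {m : ℕ} (hm : Mid π (m + 7)) (h1 : m ≤ 1)
    (hn : ∀ r : ℕ, r.Prime → r ≤ m + 7 → (r ∈ π ↔ (r = 2 ∨ r = 3))) (hk : Case π (m + 7) 4) :
    ¬ IsDPiGroup π (alternatingGroup (Fin (m + 7))) := by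
  intro hD
  let s : Setoid (Fin (m + 7)) := Setoid.ker fun x => x.val / 3
  have hcls : ∀ x, cls s x = Finset.univ.filter fun y => x.val / 3 = y.val / 3 := fun x => by
    ext y; rw [mem_cls]; simp [s, Setoid.ker_def]
  have hK : IsPiSubgroup π (T s) := by
    intro p hp hd
    have hle := le_of_dvd_card hp hd
    rw [Fintype.card_fin] at hle
    refine (hn p hp hle).2 ?_
    by_contra hne
    rw [not_or] at hne
    have := hp.five_le_of_ne_two_of_ne_three hne.1 hne.2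
    have h2 : ({6} : Finset (Fin (m + 7))).card < p := by simp; omega
    refine not_dvd_T hp (by rw [Fintype.card_fin]; omega) h2 (fun x => ?_)
      (fun x => lt_of_lt_of_le (show _ < 5 from ?_) this) hd
    · rw [hcls]; revert x; interval_cases m <;> decide
    · rw [hcls]; revert x; interval_cases m <;> decide
  obtain ⟨H, hH, hle⟩ := exists_hall_ge hD (pi_sub hK)
  obtain ⟨-, Γ, c1, rfl⟩ := Mid.alt (by rwa [Fintype.card_fin]) hH
  rw [Fintype.card_fin] at c1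
  have hΓ := (hk.unique c1).symm
  have hu : swap 0 1 * swap 1 2 ∈ alternatingGroup (Fin (m + 7)) ∧ ∀ x y : Fin (m + 7), x.val / 3 = y.val / 3 ↔
      ((swap 0 1 * swap 1 2 : Perm (Fin (m + 7))) x).val / 3 = ((swap 0 1 * swap 1 2 : Perm (Fin (m + 7))) y).val / 3 := by
    rw [mem_alternatingGroup]
    interval_cases m <;> decide +kernel
  have hv : swap 0 3 * swap 1 4 * swap 2 5 * swap 0 1 ∈ alternatingGroup (Fin (m + 7)) ∧
      ∀ x y : Fin (m + 7), x.val / 3 = y.val / 3 ↔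
      ((swap 0 3 * swap 1 4 * swap 2 5 * swap 0 1 : Perm (Fin (m + 7))) x).val / 3 =
        ((swap 0 3 * swap 1 4 * swap 2 5 * swap 0 1 : Perm (Fin (m + 7))) y).val / 3 := by
    rw [mem_alternatingGroup]
    interval_cases m <;> decide +kernel
  have h3 : swap 0 1 * swap 1 2 ∈ T (sG Γ) := hle (show (⟨_, hu.1⟩ : alternatingGroup _) ∈ _ from hu.2)
  have h4 : swap 0 3 * swap 1 4 * swap 2 5 * swap 0 1 ∈ T (sG Γ) :=
    hle (show (⟨_, hv.1⟩ : alternatingGroup _) ∈ _ from hv.2)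
  have key : ∀ Γ : Finset (Fin (m + 7)), Γ.card = 4 →
      (∀ y, (6 ∈ Γ ↔ y ∈ Γ) ↔ ((swap 0 1 * swap 1 2 : Perm (Fin (m + 7))) 6 ∈ Γ ↔
        (swap 0 1 * swap 1 2 : Perm (Fin (m + 7))) y ∈ Γ)) →
      ¬ (∀ y, (6 ∈ Γ ↔ y ∈ Γ) ↔ ((swap 0 3 * swap 1 4 * swap 2 5 * swap 0 1 : Perm (Fin (m + 7))) 6 ∈ Γ ↔
        (swap 0 3 * swap 1 4 * swap 2 5 * swap 0 1 : Perm (Fin (m + 7))) y ∈ Γ)) := by
    interval_cases m <;> decide +kernel
  exact key Γ hΓ (h3 6) (h4 6)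

theorem not_D {n : ℕ} (hm : Mid π n) : ¬ IsDPiGroup π (alternatingGroup (Fin n)) := by
  intro hD
  obtain ⟨H, hH⟩ := (C_of_D hD).1
  have hm' : Mid π (Fintype.card (Fin n)) := by rwa [Fintype.card_fin]
  obtain ⟨h5, Γ, c1, -⟩ := hm'.alt hH
  rcases id c1 with ⟨-, h1, h2⟩ | ⟨h0, h1, h2⟩
  · exact not_D_one h5 hm' h2 c1 h1 hD
  · rw [Fintype.card_fin] at h0 h2 c1
    obtain ⟨m, rfl⟩ : ∃ m, n = m + 7 := ⟨n - 7, by omega⟩
    exact not_D_two hm (by omega) h2 (h1 ▸ c1) hD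

end Cfsg.Agent.H62.HallSym
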